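import Cfsg.Agent.H11.SRank

/-! The symmetric group of degree six acting on an elementary abelian group of order sixteen. -/

set_option autoImplicit false
set_option linter.style.haveILetI false

namespace Cfsg.Agent.H20.Sq

variable {V : Type*} [CommGroup V]

/-- fixed points of an automorphism -/
def Fx (g : MulAut V) : Subgroup V := g.toMonoidHom.eqLocus (MonoidHom.id V)

theorem mem_Fx {g : MulAut V} {v : V} : v ∈ Fx g ↔ g v = v := Iff.rfl

theorem card_conj (k g : MulAut V) : Nat.card (Fx (k * g * k⁻¹)) = Nat.card (Fx g) :=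
  Nat.card_congr (k.symm.toEquiv.subtypeEquiv fun v => by
    simp [mem_Fx, MulEquiv.eq_symm_apply])

variable [Finite V]

theorem fix_mod (K : Subgroup V) {g : MulAut V} (hK : ∀ v ∈ K, g v ∈ K) {p : ℕ} (hp : p.Prime) (h : g ^ p = 1) :
    Nat.card K ≡ Nat.card (K ⊓ Fx g : Subgroup V) [MOD p] := by
  classical
  have := Fact.mk hp
  have := Fintype.ofFinite K
  let f : Function.End K := fun v => ⟨g v, hK v v.2⟩
  have a : ∀ (n : ℕ) (v : K), ((f ^ n) v : V) = (g ^ n) v := fun n => by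
    induction n with
    | zero => exact fun _ => rfl
    | succ n ih => exact fun v => by rw [pow_succ, pow_succ]; exact ih _
  have b := Equiv.Perm.card_fixedPoints_modEq (f := f) (p := p) (n := 1) (funext fun v => Subtype.ext (by
    rw [pow_one, a, h]; rfl))
  rw [← Nat.card_eq_fintype_card, ← Nat.card_eq_fintype_card] at b
  convert b using 1
  exact Nat.card_congr ⟨fun v => ⟨⟨v.1, v.2.1⟩, Subtype.ext v.2.2⟩, fun v => ⟨v.1.1, v.1.2, congrArg Subtype.val v.2⟩,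
    fun _ => rfl, fun _ => rfl⟩

theorem card_lt {K L : Subgroup V} (h : K ≤ L) (n : K ≠ L) : Nat.card K < Nat.card L :=
  lt_of_not_ge fun c => n (Subgroup.eq_of_le_of_card_ge h c)

variable (h16 : Nat.card V = 16)
include h16

theorem card_cases (K : Subgroup V) : Nat.card K = 1 ∨ Nat.card K = 2 ∨ Nat.card K = 4 ∨ Nat.card K = 8 ∨ Nat.card K = 16 := by
  obtain ⟨i, hi, e⟩ := (Nat.dvd_prime_pow Nat.prime_two (m := 4)).1 (h16 ▸ K.card_subgroup_dvd_card)
  interval_cases i <;> simp [e]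

theorem fx_three {g : MulAut V} (h : g ^ 3 = 1) (n : g ≠ 1) : Fx g = ⊥ ∨ Nat.card (Fx g) = 4 := by
  have a := fix_mod ⊤ (g := g) (fun _ _ => trivial) Nat.prime_three h
  have b := card_lt (le_top : Fx g ≤ ⊤) fun e => n (MulEquiv.ext fun v => e.ge (Subgroup.mem_top v))
  rw [top_inf_eq] at a
  rw [Subgroup.card_top, h16] at a b
  rw [← Subgroup.card_eq_one]
  have := card_cases h16 (Fx g)
  unfold Nat.ModEq at a
  omega

theorem split {K L : Subgroup V} (a : Nat.card K = 4) (b : Nat.card L = 4) (c : K ⊓ L = ⊥) (v : V) :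
    ∃ x ∈ K, ∃ y ∈ L, x * y = v := by
  have d := H1.card_sup_of_disjoint (N := K) (H := L) Subgroup.le_normalizer_of_normal c
  exact Subgroup.mem_sup.1 ((Subgroup.eq_top_of_card_eq _ (by rw [d, a, b, h16])).ge (Subgroup.mem_top v))

theorem inv_le {s d : MulAut V} (h : s * d * s⁻¹ = d⁻¹) (h3 : d ^ 3 = 1) (hd : Fx d = ⊥) : Nat.card (Fx s) ≤ 4 := by
  have a : Fx s ⊓ Fx (d * s * d⁻¹) = ⊥ := eq_bot_iff.2 fun v hv => hd.le (by
    have e1 : s⁻¹ v = v := by rw [MulAut.inv_apply, MulEquiv.symm_apply_eq]; exact hv.1.symm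
    have e2 : d * s * d⁻¹ * s⁻¹ = d⁻¹ := by
      rw [mul_assoc, mul_assoc, ← mul_assoc s, show s * d⁻¹ * s⁻¹ = (s * d * s⁻¹)⁻¹ by group, h, inv_inv,
        eq_inv_iff_mul_eq_one, ← pow_three', h3]
    have e3 : d⁻¹ v = v := by rw [← e2, MulAut.mul_apply, e1]; exact hv.2
    rw [MulAut.inv_apply, MulEquiv.symm_apply_eq] at e3
    exact e3.symm)
  have b := (H1.card_sup_of_disjoint (N := Fx s) (H := Fx (d * s * d⁻¹)) Subgroup.le_normalizer_of_normal a).ge.trans
    (Subgroup.card_le_card_group _)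
  rw [card_conj, h16] at b
  nlinarith

variable (h2 : ∀ v : V, v * v = 1) {a b t : MulAut V} (hc : a * b = b * a) (b3 : b ^ 3 = 1)
include h2 hc b3

theorem dich (a3 : a ^ 3 = 1) (n1 : a ≠ 1) (n2 : a * b ≠ 1) (e1 : Nat.card (Fx b) = Nat.card (Fx a))
    (e2 : Nat.card (Fx (a * b * b)) = Nat.card (Fx (a * b))) :
    (Nat.card (Fx a) = 4 ∧ Fx (a * b) = ⊥) ∨ (Nat.card (Fx (a * b)) = 4 ∧ Fx a = ⊥) := by
  have c : ∀ v, b (a v) = a (b v) := fun v => (DFunLike.congr_fun hc v).symm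
  have a3' : ∀ v, a (a (a v)) = v := fun v => by simpa [pow_three] using DFunLike.congr_fun a3 v
  have b3' : ∀ v, b (b (b v)) = v := fun v => by simpa [pow_three] using DFunLike.congr_fun b3 v
  have k : ∀ W : Subgroup V, Fx a ≤ W → Fx b ≤ W → Fx (a * b) ≤ W → Fx (a * b * b) ≤ W → 16 ≤ Nat.card W := fun W w1 w2 w3 w4 => by
    rw [show W = ⊤ from eq_top_iff.2 fun v _ => ?_, Subgroup.card_top, h16]
    have u0 := w1 (x := v * a v * a (a v) * b v * a (b v) * a (a (b v)) * b (b v) * a (b (b v)) * a (a (b (b v)))) (by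
      simp only [mem_Fx, map_mul, a3']; ac_rfl)
    have u1 := w1 (x := v * a v * a (a v)) (by simp only [mem_Fx, map_mul, a3']; ac_rfl)
    have u2 := w2 (x := v * b v * b (b v)) (by simp only [mem_Fx, map_mul, b3']; ac_rfl)
    have u3 := w3 (x := v * a (b v) * a (a (b (b v)))) (by
      simp only [mem_Fx, map_mul, MulAut.mul_apply, c, a3', b3']; ac_rfl)
    have u4 := w4 (x := v * a (b (b v)) * a (a (b v))) (by
      simp only [mem_Fx, map_mul, MulAut.mul_apply, c, a3', b3']; ac_rfl)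
    convert mul_mem (mul_mem (mul_mem (mul_mem u0 u1) u2) u3) u4 using 1
    calc v = v * (v * v) * (v * v) * (a v * a v) * (a (a v) * a (a v)) * (b v * b v) * (b (b v) * b (b v)) * (a (b v) * a (b v)) *
        (a (a (b v)) * a (a (b v))) * (a (b (b v)) * a (b (b v))) * (a (a (b (b v))) * a (a (b (b v)))) := by simp only [h2, mul_one]
      _ = _ := by ac_rfl
  rcases fx_three h16 a3 n1 with x | x <;>
    rcases fx_three h16 (g := a * b) (by rw [Commute.mul_pow hc, a3, b3, one_mul]) n2 with y | y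
  · rw [x, Subgroup.card_bot, Subgroup.card_eq_one] at e1
    rw [y, Subgroup.card_bot, Subgroup.card_eq_one] at e2
    simpa using k ⊥ x.le e1.le y.le e2.le
  · exact .inr ⟨y, x⟩
  · exact .inl ⟨x, y⟩
  exfalso
  have m := fix_mod (Fx a) (g := b) (fun v hv => by rw [mem_Fx, ← c, mem_Fx.1 hv]) Nat.prime_three b3
  by_cases w : Fx a ⊓ Fx b = ⊥
  · have : Fx (a * b) = ⊥ := eq_bot_iff.2 fun v hv => by
      obtain ⟨p, hp, q, hq, rfl⟩ := split h16 x (e1.trans x) w v
      rw [mem_Fx, map_mul, MulAut.mul_apply, MulAut.mul_apply, ← c, mem_Fx.1 hp, mem_Fx.1 hq] at hv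
      have e : b p * p = a q * q := by
        calc b p * p = b p * p * (a q * a q) * (q * q) := by simp only [h2, mul_one]
          _ = (b p * a q) * (p * q) * (a q * q) := by ac_rfl
          _ = _ := by rw [hv, h2, one_mul]
      have f : b p * p = 1 := w.le (show _ ∈ Fx a ⊓ Fx b from ⟨mul_mem (mem_Fx.2 (by rw [← c, mem_Fx.1 hp])) hp,
        e ▸ mul_mem (mem_Fx.2 (by rw [c, mem_Fx.1 hq])) hq⟩)
      have p1 : p = 1 := w.le (show _ ∈ Fx a ⊓ Fx b from ⟨hp, mul_right_cancel (f.trans (h2 p).symm)⟩)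
      have q1 : q = 1 := w.le (show _ ∈ Fx a ⊓ Fx b from ⟨mul_right_cancel ((e.symm.trans f).trans (h2 q).symm), hq⟩)
      simp [p1, q1]
    simp [this] at y
  · have w1 := Subgroup.card_le_of_le (inf_le_left : Fx a ⊓ Fx b ≤ _)
    have w2 := card_cases h16 (Fx a ⊓ Fx b)
    rw [← Subgroup.card_eq_one] at w
    unfold Nat.ModEq at m
    have w3 : Nat.card (Fx a ⊓ Fx b : Subgroup V) = 4 := by omega
    refine absurd (k (Fx a ⊓ Fx b) ?_ ?_ ?_ ?_) (by omega) <;> refine (Subgroup.eq_of_le_of_card_ge ?_ (by omega)).ge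
    exacts [inf_le_left, inf_le_right, fun v hv => by rw [mem_Fx, MulAut.mul_apply, mem_Fx.1 hv.2, mem_Fx.1 hv.1],
      fun v hv => by rw [mem_Fx, MulAut.mul_apply, MulAut.mul_apply, mem_Fx.1 hv.2, mem_Fx.1 hv.2, mem_Fx.1 hv.1]]

theorem tv (ha : Nat.card (Fx a) = 4) (hb : Nat.card (Fx b) = 4) (hab : Fx (a * b) = ⊥) (ta : t * a * t⁻¹ = a⁻¹)
    (tb : t * b = b * t) (t2 : t ^ 2 = 1) (t1 : t ≠ 1) :
    (∀ v, b (t v * v) = t v * v) ∧ ∃ w, w ≠ 1 ∧ (∃ v, t v * v = w) ∧ ∀ u, b u = u → t u = u → u = 1 ∨ u = w := by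
  have c : ∀ v, b (a v) = a (b v) := fun v => (DFunLike.congr_fun hc v).symm
  have d : ∀ v, b (t v) = t (b v) := fun v => (DFunLike.congr_fun tb v).symm
  have w : Fx a ⊓ Fx b = ⊥ := eq_bot_iff.2 fun v hv => hab.le (by
    rw [mem_Fx, MulAut.mul_apply, mem_Fx.1 hv.2, mem_Fx.1 hv.1])
  have m1 := fix_mod (Fx a) (g := t) (fun v hv => by
    have := DFunLike.congr_fun (mul_inv_eq_iff_eq_mul.1 ta) v
    rw [MulAut.mul_apply, MulAut.mul_apply, mem_Fx.1 hv, MulAut.inv_apply, MulEquiv.eq_symm_apply] at this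
    exact this) Nat.prime_two t2
  have m2 := fix_mod (Fx a ⊓ Fx t) (g := b) (fun v hv => ⟨mem_Fx.2 (by rw [← c, mem_Fx.1 hv.1]),
    mem_Fx.2 (by rw [← d, mem_Fx.1 hv.2])⟩) Nat.prime_three b3
  rw [inf_right_comm, w, bot_inf_eq, Subgroup.card_bot] at m2
  have w1 := Subgroup.card_le_of_le (inf_le_left : Fx a ⊓ Fx t ≤ _)
  have w2 := card_cases h16 (Fx a ⊓ Fx t)
  unfold Nat.ModEq at m1 m2
  have e : Fx a ≤ Fx t := (Subgroup.eq_of_le_of_card_ge inf_le_left (by omega)).ge.trans inf_le_right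
  have f : ∀ v, b (t v * v) = t v * v := fun v => by
    obtain ⟨p, hp, q, hq, rfl⟩ := split h16 ha hb w v
    rw [map_mul t, mem_Fx.1 (e hp), mul_mul_mul_comm, h2, one_mul, map_mul, d, mem_Fx.1 hq]
  have g : Nat.card (Fx b ⊓ Fx t : Subgroup V) ≤ 2 := by
    have g1 := card_lt (inf_le_left : Fx b ⊓ Fx t ≤ _) fun x => t1 (MulEquiv.ext fun v => by
      obtain ⟨p, hp, q, hq, rfl⟩ := split h16 ha hb w v
      exact mul_mem (e hp) (x.ge hq).2)
    have := card_cases h16 (Fx b ⊓ Fx t)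
    omega
  obtain ⟨v, hv⟩ : ∃ v, t v ≠ v := by_contra fun x => t1 (MulEquiv.ext (by simpa using x))
  have n : t v * v ≠ 1 := fun x => hv (mul_right_cancel (x.trans (h2 v).symm))
  refine ⟨f, _, n, ⟨v, rfl⟩, fun u u1 u2 => ?_⟩
  have o : Subgroup.zpowers (t v * v) = Fx b ⊓ Fx t := Subgroup.eq_of_le_of_card_ge (Subgroup.zpowers_le.2 ⟨f v, mem_Fx.2 (by
    have : t (t v) = v := by simpa [sq] using DFunLike.congr_fun t2 v
    rw [map_mul, this, mul_comm])⟩) (by
      have := Fact.mk Nat.prime_two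
      rw [Nat.card_zpowers, orderOf_eq_prime (by rw [sq, h2]) n]; exact g)
  obtain ⟨k, rfl⟩ := o.ge (show u ∈ Fx b ⊓ Fx t from ⟨u1, u2⟩)
  rcases Int.even_or_odd' k with ⟨j, rfl | rfl⟩ <;> simp only [zpow_add, zpow_mul, zpow_two, h2] <;> simp

end Cfsg.Agent.H20.Sq
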