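import Cfsg.Agent.H20.Sq1

/-! An extension of a `2`-group by the symmetric group of degree six has a section of rank five. -/

set_option autoImplicit false
set_option linter.style.haveILetI false

namespace Cfsg.Agent.H20.Sq

open Equiv

/-- the configuration of elements that is used -/
structure Cf {S : Type*} [Group S] (a b t : S) (E : Subgroup S) : Prop where
  ab : a * b = b * a
  a3 : a ^ 3 = 1
  b3 : b ^ 3 = 1
  ta : t * a * t⁻¹ = a⁻¹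
  tb : t * b = b * t
  t1 : t ≠ 1
  tE : t ∈ E
  card : Nat.card E = 8
  sq : ∀ g ∈ E, g * g = 1
  comm : ∀ g ∈ E, ∀ g' ∈ E, g * g' = g' * g
  sig : ∃ k, ∀ g ∈ E, (k * (a * b) * k⁻¹)⁻¹ * g * (k * (a * b) * k⁻¹) ∈ E
  cls : ∀ g ∈ E, g = 1 ∨ ∃ k, g = k * t * k⁻¹ ∨ g * (k * (a * b) * k⁻¹) * g⁻¹ = (k * (a * b) * k⁻¹)⁻¹
  ex : ∃ g ∈ E, ∃ k, g * (k * (a * b) * k⁻¹) * g⁻¹ = (k * (a * b) * k⁻¹)⁻¹

/-- a subgroup given by a list of involutions -/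
def ofList (L : List (Perm (Fin 6))) (h1 : 1 ∈ L) (h2 : ∀ g ∈ L, ∀ h ∈ L, g * h ∈ L) (h3 : ∀ g ∈ L, g⁻¹ ∈ L) :
    Subgroup (Perm (Fin 6)) where
  carrier := {g | g ∈ L}
  one_mem' := h1
  mul_mem' a b := h2 _ a _ b
  inv_mem' a := h3 _ a

theorem cf_of {a b t k0 g1 k1 : Perm (Fin 6)} {L K : List (Perm (Fin 6))}
    (h : (1 ∈ L ∧ (∀ g ∈ L, ∀ h ∈ L, g * h ∈ L) ∧ ∀ g ∈ L, g⁻¹ ∈ L) ∧ a * b = b * a ∧ a * a * a = 1 ∧ b * b * b = 1 ∧
      t * a * t⁻¹ = a⁻¹ ∧ t * b = b * t ∧ t ≠ 1 ∧ t ∈ L ∧ (L.Nodup ∧ L.length = 8) ∧ (∀ g ∈ L, g * g = 1) ∧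
      (∀ g ∈ L, ∀ g' ∈ L, g * g' = g' * g) ∧ (∀ g ∈ L, (k0 * (a * b) * k0⁻¹)⁻¹ * g * (k0 * (a * b) * k0⁻¹) ∈ L) ∧
      (∀ g ∈ L, g = 1 ∨ ∃ k ∈ K, g = k * t * k⁻¹ ∨ g * (k * (a * b) * k⁻¹) * g⁻¹ = (k * (a * b) * k⁻¹)⁻¹) ∧
      g1 ∈ L ∧ g1 * (k1 * (a * b) * k1⁻¹) * g1⁻¹ = (k1 * (a * b) * k1⁻¹)⁻¹) : ∃ E, Cf a b t E := by
  obtain ⟨⟨h1, h2, h3⟩, a1, a2, a3, a4, a5, a6, a7, ⟨a8, a9⟩, b1, b2, b3, b4, b5, b6⟩ := h
  refine ⟨ofList L h1 h2 h3, a1, pow_three' a ▸ a2, pow_three' b ▸ a3, a4, a5, a6, a7, ?_, b1, b2, ⟨k0, b3⟩,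
    fun g hg => (b4 g hg).imp_right fun ⟨k, _, e⟩ => ⟨k, e⟩, g1, b5, k1, b6⟩
  rw [← a9, ← List.toFinset_card_of_nodup a8]
  exact Nat.subtype_card _ fun _ => List.mem_toFinset

/-- a three-cycle -/
def a6 : Perm (Fin 6) := swap 0 1 * swap 1 2
/-- the three-cycle on the other points -/
def b6 : Perm (Fin 6) := swap 3 4 * swap 4 5

theorem cf1 : ∃ E, Cf a6 b6 (swap 0 1) E :=
  cf_of (L := [swap 0 1, 1, swap 0 1 * swap 2 3, swap 0 1 * swap 4 5, swap 2 3, swap 4 5, swap 0 1 * swap 2 3 * swap 4 5,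
    swap 2 3 * swap 4 5]) (K := [1, swap 2 4, swap 0 2 * swap 1 3, swap 0 4 * swap 1 5, swap 1 5])
    (k0 := swap 1 4) (g1 := swap 0 1 * swap 2 3) (k1 := swap 2 4) (by refine ⟨⟨?_, ?_, ?_⟩, ?_, ?_, ?_, ?_, ?_, ?_, ?_, ?_, ?_, ?_, ?_, ?_, ?_⟩ <;> decide +kernel)

theorem cf2 : ∃ E, Cf (a6 * b6) (a6 * b6 * b6) (swap 0 3 * swap 1 5 * swap 2 4) E :=
  cf_of (L := [swap 1 5 * swap 2 4, 1, swap 0 3 * swap 1 4 * swap 2 5, swap 0 3 * swap 1 2 * swap 4 5, swap 0 3,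
    swap 0 3 * swap 1 5 * swap 2 4, swap 1 4 * swap 2 5, swap 1 2 * swap 4 5])
    (K := [swap 2 5, swap 4 5, swap 2 3, 1, swap 2 4])
    (k0 := swap 0 4) (g1 := swap 1 5 * swap 2 4) (k1 := swap 2 5) (by refine ⟨⟨?_, ?_, ?_⟩, ?_, ?_, ?_, ?_, ?_, ?_, ?_, ?_, ?_, ?_, ?_, ?_, ?_⟩ <;> decide +kernel)

theorem ab6 : b6 = (swap 0 3 * swap 1 4 * swap 2 5) * a6 * (swap 0 3 * swap 1 4 * swap 2 5)⁻¹ ∧
    a6 * b6 * b6 = swap 4 5 * (a6 * b6) * (swap 4 5)⁻¹ ∧ a6 * b6 * (a6 * b6 * b6) = swap 1 2 * a6 * (swap 1 2)⁻¹ ∧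
    a6 ≠ 1 ∧ a6 * b6 ≠ 1 := by decide +kernel

section
variable {X T S V : Type*} [Group X] [Finite X] [Group T] [Group S] [CommGroup V] [Finite V]
  {π : X →* T} {ι : S →* T} (hι : Function.Injective ι) (hπ : Function.Surjective π)
  {P : Subgroup X} [P.Normal] (hP : π.ker = P) {q : P →* V} (hq : Function.Surjective q)
  {φ : S →* MulAut V} (hφ : Function.Injective φ)
  (hc : ∀ y s (x : P), π y = ι s → φ s (q x) = q (MulAut.conjNormal y x))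
  (h16 : Nat.card V = 16) (h2 : ∀ v : V, v * v = 1)
include hι hπ hP hq hφ hc h16 h2

theorem core {a b t : S} {E : Subgroup S} (h : Cf a b t E) (ha : Nat.card (Fx (φ a)) = 4) (hb : Nat.card (Fx (φ b)) = 4)
    (hab : Fx (φ (a * b)) = ⊥) : ¬ H11.SR 4 (⊤ : Subgroup X) := fun hs => by
  have cj : ∀ k g, Nat.card (Fx (φ (k * g * k⁻¹))) = Nat.card (Fx (φ g)) := fun k g => by
    rw [map_mul, map_mul, map_inv, card_conj]
  have f1 : ∀ k, Fx (φ (k * (a * b) * k⁻¹)) = ⊥ := fun k => by rw [← Subgroup.card_eq_one, cj, hab, Subgroup.card_bot]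
  have d3 : ∀ k, φ (k * (a * b) * k⁻¹) ^ 3 = 1 := fun k => by
    rw [← map_pow, conj_pow, Commute.mul_pow h.ab, h.a3, h.b3]; simp
  let W : Subgroup V := ⨅ g : E, Fx (φ g)
  have mW : ∀ v, v ∈ W ↔ ∀ g ∈ E, φ g v = v := fun v => by simp [W, Subgroup.mem_iInf, mem_Fx]
  have lW : ∀ g ∈ E, W ≤ Fx (φ g) := fun g hg v hv => (mW v).1 hv g hg
  have i4 : ∀ g k, g * (k * (a * b) * k⁻¹) * g⁻¹ = (k * (a * b) * k⁻¹)⁻¹ → Nat.card (Fx (φ g)) ≤ 4 := fun g k e =>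
    inv_le h16 (by rw [← map_inv, ← map_mul, ← map_mul, e, map_inv]) (d3 k) (f1 k)
  have key : ∀ k, k * t * k⁻¹ ∈ E → (∀ v, φ (k * b * k⁻¹) (φ (k * t * k⁻¹) v * v) = φ (k * t * k⁻¹) v * v) ∧
      (∃ w ∈ W, w ≠ 1) ∧ ∀ u, φ (k * b * k⁻¹) u = u → φ (k * t * k⁻¹) u = u → u ∈ W := fun k hk => by
    obtain ⟨k1, w, w1, ⟨v, w2⟩, w3⟩ := tv h16 h2 (a := φ (k * a * k⁻¹)) (b := φ (k * b * k⁻¹)) (t := φ (k * t * k⁻¹))
      (by rw [← map_mul, ← map_mul, conj_mul, conj_mul, h.ab]) (by rw [← map_pow, conj_pow, h.b3]; simp)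
      ((cj _ _).trans ha) ((cj _ _).trans hb) (by rw [← map_mul, conj_mul, f1])
      (by rw [← map_inv, ← map_inv, ← map_mul, ← map_mul, conj_inv, conj_inv, conj_mul, conj_mul, h.ta])
      (by rw [← map_mul, ← map_mul, conj_mul, conj_mul, h.tb]) (by rw [← map_pow, sq, h.sq _ hk, map_one])
      (by rw [Ne, map_eq_one_iff _ hφ, conj_eq_one_iff]; exact h.t1)
    have w4 : w ∈ W := (mW w).2 fun g hg => by
      have c : ∀ v, φ (k * t * k⁻¹) (φ g v) = φ g (φ (k * t * k⁻¹) v) := fun v => by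
        rw [← MulAut.mul_apply, ← map_mul, h.comm _ hk _ hg, map_mul, MulAut.mul_apply]
      have e : φ g w = φ (k * t * k⁻¹) (φ g v) * φ g v := by rw [c, ← map_mul, w2]
      refine (w3 _ (e ▸ k1 _) ?_).resolve_left (by simpa using w1)
      rw [c, ← w2, map_mul (φ (k * t * k⁻¹)), ← MulAut.mul_apply, ← map_mul φ, h.sq _ hk, map_one, MulAut.one_apply, mul_comm]
    exact ⟨k1, ⟨w, w4, w1⟩, fun u u1 u2 => (w3 u u1 u2).elim (fun e => e ▸ one_mem _) fun e => e ▸ w4⟩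
  have W4 : Nat.card W = 4 := by
    obtain ⟨k, hk⟩ := h.sig
    obtain ⟨g, hg, l, hl⟩ := h.ex
    have m := fix_mod W (g := φ (k * (a * b) * k⁻¹)) (fun v hv => (mW _).2 fun g hg => by
      conv_rhs => rw [← (mW v).1 hv _ (hk g hg)]
      rw [← MulAut.mul_apply, ← MulAut.mul_apply, ← map_mul, ← map_mul]
      congr 2; group)
      Nat.prime_three (d3 k)
    rw [f1, inf_bot_eq, Subgroup.card_bot] at m
    have m1 := (Subgroup.card_le_of_le (lW g hg)).trans (i4 g l hl)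
    obtain ⟨w, w1, w2⟩ := (key 1 (by simpa using h.tE)).2.1
    have m2 : Nat.card W ≠ 1 := fun e => w2 ((Subgroup.card_eq_one.1 e).le w1)
    unfold Nat.ModEq at m
    omega
  have mP : ∀ x, x ∈ P ↔ π x = 1 := fun x => hP ▸ Iff.rfl
  have r := hs ((E.map ι).comap π) le_top ((W.comap q).map P.subtype)
    (by rintro _ ⟨x, -, rfl⟩; exact ⟨1, one_mem _, by rw [map_one, eq_comm, ← mP]; exact x.2⟩) (by
    rintro x ⟨g, hg, e⟩
    have x2 : x * x ∈ P := (mP _).2 (by rw [map_mul, ← e, ← map_mul, h.sq g hg, map_one])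
    refine ⟨⟨_, x2⟩, show q _ ∈ W from ?_, rfl⟩
    have u1 : φ g (q ⟨_, x2⟩) = q ⟨_, x2⟩ := (hc x g _ e.symm).trans (congrArg q (Subtype.ext (by simp [mul_assoc])))
    rcases h.cls g hg with rfl | ⟨k, rfl | t1⟩
    · have x1 : x ∈ P := (mP _).2 (by rw [← e, map_one])
      rw [show (⟨_, x2⟩ : P) = ⟨x, x1⟩ * ⟨x, x1⟩ from rfl, map_mul, h2]
      exact one_mem _
    · obtain ⟨k1, -, k3⟩ := key k hg
      refine k3 _ ?_ u1
      obtain ⟨y, hy⟩ := hπ (ι (k * b * k⁻¹))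
      have v1 : y * x * y⁻¹ * x⁻¹ ∈ P := (mP _).2 (by
        simp only [map_mul π, map_inv π, hy, ← e, ← map_inv ι, ← map_mul ι, conj_inv, conj_mul, ← h.tb]
        simp)
      have u2 : φ (k * b * k⁻¹) (q ⟨_, x2⟩) = (φ (k * t * k⁻¹) (q ⟨_, v1⟩) * q ⟨_, v1⟩) * q ⟨_, x2⟩ := by
        rw [hc y _ _ hy, hc x _ _ e.symm, mul_comm _ (q ⟨_, v1⟩), ← map_mul, ← map_mul]
        exact congrArg q (Subtype.ext (by simp; group))
      have u3 := k1 (q ⟨_, v1⟩)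
      generalize φ (k * t * k⁻¹) (q ⟨_, v1⟩) * q ⟨_, v1⟩ = z at u2 u3
      have u4 : φ (k * b * k⁻¹) ^ 3 = 1 := by rw [← map_pow, conj_pow, h.b3]; simp
      have u5 := DFunLike.congr_fun u4 (q ⟨_, x2⟩)
      simp only [pow_three, MulAut.mul_apply, u2, map_mul (φ _), u3, MulAut.one_apply, ← mul_assoc z, h2, one_mul] at u5
      exact u2.trans u5
    · exact (Subgroup.eq_of_le_of_card_ge (lW g hg) (W4 ▸ i4 g k t1)).ge u1)
  have r1 : P ≤ (E.map ι).comap π := fun x hx => ⟨1, one_mem _, by rw [map_one, (mP x).1 hx]⟩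
  have r2 : P.relIndex ((E.map ι).comap π) = 8 := by
    rw [← hP, Subgroup.relIndex_ker, Subgroup.map_comap_eq_self_of_surjective hπ, Subgroup.card_map_of_injective hι, h.card]
  have r3 := W.card_mul_index
  rw [← Subgroup.relIndex_mul_relIndex _ P _ (Subgroup.map_subtype_le _) r1, r2, Subgroup.relIndex,
    Subgroup.subgroupOf, Subgroup.comap_map_eq_self_of_injective P.subtype_injective,
    Subgroup.index_comap_of_surjective _ hq] at r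
  rw [W4, h16] at r3
  omega

end

theorem s6 {X T V : Type*} [Group X] [Finite X] [Group T] [CommGroup V] [Finite V]
    {π : X →* T} {ι : Perm (Fin 6) →* T} (hι : Function.Injective ι) (hπ : Function.Surjective π)
    {P : Subgroup X} [P.Normal] (hP : π.ker = P) {q : P →* V} (hq : Function.Surjective q)
    {φ : Perm (Fin 6) →* MulAut V} (hφ : Function.Injective φ)
    (hc : ∀ y s (x : P), π y = ι s → φ s (q x) = q (MulAut.conjNormal y x))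
    (h16 : Nat.card V = 16) (h2 : ∀ v : V, v * v = 1) : ¬ H11.SR 4 (⊤ : Subgroup X) := by
  obtain ⟨E1, c1⟩ := cf1
  obtain ⟨E2, c2⟩ := cf2
  obtain ⟨e1, e2, e3, e4, e5⟩ := ab6
  have cj : ∀ k g, Nat.card (Fx (φ (k * g * k⁻¹))) = Nat.card (Fx (φ g)) := fun k g => by
    rw [map_mul, map_mul, map_inv, card_conj]
  have f1 : Nat.card (Fx (φ b6)) = Nat.card (Fx (φ a6)) := by rw [e1, cj]
  have f2 : Nat.card (Fx (φ (a6 * b6 * b6))) = Nat.card (Fx (φ (a6 * b6))) := by rw [e2, cj]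
  rcases dich h16 h2 (a := φ a6) (b := φ b6) (by rw [← map_mul, c1.ab, map_mul]) (by rw [← map_pow, c1.b3, map_one])
    (by rw [← map_pow, c1.a3, map_one]) (by rwa [Ne, map_eq_one_iff _ hφ]) (by rwa [← map_mul, Ne, map_eq_one_iff _ hφ])
    f1 (by simpa only [map_mul] using f2) with ⟨x, y⟩ | ⟨x, y⟩
  · exact core hι hπ hP hq hφ hc h16 h2 c1 x (f1.trans x) (by rwa [map_mul])
  · rw [← map_mul] at x
    exact core hι hπ hP hq hφ hc h16 h2 c2 x (f2.trans x) (by rw [← Subgroup.card_eq_one, e3, cj, y, Subgroup.card_bot])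

end Cfsg.Agent.H20.Sq
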