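import Cfsg.Agent.BG.S16

/-! General facts on type P data. -/

set_option autoImplicit false

namespace Cfsg.Agent.H20

open Subgroup Cfsg.Agent.H21 Cfsg.Agent.BG

variable {G : Type*} [Group G] [Finite G] {M W₁ U W₂ : Subgroup G}

theorem typePW_defM' (h : IsTypePWith M W₁ U W₂) : Sdprod (fittingHallOf M) U ⁅M, M⁆ :=
  ⟨h.U_compl, (Fcore_normalIn M).norm_of_le (der_le M)⟩

theorem typePW_defM (h : IsTypePWith M W₁ U W₂) : Sdprod ⁅M, M⁆ W₁ M :=
  ⟨h.W₁_compl, (NormalIn.der_self M).norm⟩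

theorem typePW_hall (h : IsTypePWith M W₁ U W₂) :
    IsPiHallOf (primesOf (fittingHallOf M))ᶜ U ⁅M, M⁆ :=
  Hall.compl (Hall.of_le (Fcore_Hall M) (typePW_defM' h).left_le (der_le M)) h.U_compl

theorem typePW_a (h : IsTypePWith M W₁ U W₂) :
    fittingOf M = fittingHallOf M ⊔ (U ⊓ C⟦fittingHallOf M⟧) := by
  have hF : fittingHallOf M ≤ fittingOf M := Fcore_le_fitting M
  refine (le_antisymm (sup_le hF ?_) ?_).symm
  · rw [← h.fitting_eq]
    exact le_sup_of_le_right (inf_le_inf_right _ ((typePW_defM' h).right_le.trans (der_le M)))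
  · have hn := nil_fittingOf M
    rw [← piCoreOf_sup_compl_of_nil (primesOf (fittingHallOf M)) hn]
    refine sup_le_sup ?_ (le_inf ?_ ?_)
    · exact Hall.le_of_normalIn (Fcore_Hall M) (Fcore_normalIn M) (isPi_piCoreOf _ _)
        ((piCoreOf_le _ _).trans (fittingOf_le M))
    · exact Hall.normalIn_le (typePW_hall h) (isPi_piCoreOf _ _)
        ((piCoreOf_normalIn_of _ (fittingOf_normalIn M)).of_le ((piCoreOf_le _ _).trans h.fitting_le)
          (der_le M))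
    · exact cent_symm (cent_of_nil_isPi hn hF (piCoreOf_le _ _) (isPi_primesOf _) (isPi_piCoreOf _ _))

theorem typePW_b (h : IsTypePWith M W₁ U W₂) :
    ⁅U, U⁆ ≤ C⟦fittingHallOf M⟧ ∧ (U ≠ ⊥ → ¬ U ≤ C⟦fittingHallOf M⟧) := by
  have d := typePW_defM' h
  have hc : (♯U).Coprime ♯(fittingHallOf M) := isPi_compl_primesOf_iff.1 (Hall.isPi (typePW_hall h))
  refine ⟨cent_of_nil_coprime (nil_fittingOf M)
    ((der_mono d.right_le).trans (h.derived_two_le.trans h.fitting_eq.le)) (Fcore_le_fitting M)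
    (coprime_of_le_left hc (der_le U)), fun hU hc => hU ?_⟩
  have hn : Group.IsNilpotent ↥⁅M, M⁆ := (d.dprod (cent_symm hc)).nil (Fcore_nil M) h.U_nilpotent
  have hH : IsHallOf ⁅M, M⁆ M := ⟨der_le M, by
    have := h.W₁_hall
    rw [(typePW_defM h).relIndex_right] at this
    rw [(typePW_defM h).relIndex_left]
    exact this.symm⟩
  have := Fcore_max (isHallOf_iff.1 hH) (NormalIn.der_self M) hn
  exact eq_bot_iff.2 ((le_inf (d.right_le.trans this) le_rfl).trans d.inf_eq.le)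

omit [Finite G] in
theorem snc_dprod (h : IsSelfNormalizingCyclic W₁ W₂) : Dprod W₁ W₂ (W₁ ⊔ W₂) :=
  dprod_mk (fun a ha => mem_cent.2 fun b hb => (h.2.2.2.1 a ha b hb).symm) rfl h.2.2.1

theorem typePW_uniq {W₂' : Subgroup G} (hW : IsSelfNormalizingCyclic W₁ W₂) (hW₂ : W₂ ≤ M)
    (h : IsTypePWith M W₁ U W₂') : W₂' = W₂ := by
  have d := snc_dprod hW
  have d' := snc_dprod h.selfNormalizing
  obtain ⟨x, hx, hx1⟩ := exists_ne_one hW.1
  obtain ⟨y, hy, hy1⟩ := exists_ne_one hW.2.1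
  have h1 : W₂ ≤ W₁ ⊔ W₂' := by
    intro w hw
    obtain ⟨a, ha, b, hb, rfl⟩ := h.W₁_compl.2.2.2 w (hW₂ hw)
    have hc : b ∈ C₁⟦x⟧ := cent_le_cent1 hx (le_cent_of_comm (comm_of_cyclic h.W₁_cyclic) le_rfl le_rfl hb)
    have : a ∈ W₂' := by
      rw [← h.W₂_centralizer x hx hx1]
      exact ⟨ha, (Subgroup.mul_mem_cancel_right _ hc).1 (cent_le_cent1 hx (d.cent' hw))⟩
    exact mul_mem (mem_sup_right this) (mem_sup_left hb)
  have hxy : x * y ∈ W₁ ⊔ W₂ := mul_mem (mem_sup_left hx) (mem_sup_right hy)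
  have h2 : W₁ ⊔ W₂' ≤ W₁ ⊔ W₂ := by
    rw [← hW.2.2.2.2.2 {x * y} ?_ (Set.singleton_nonempty _), normalizer_singleton]
    · exact cent_le_cent1 (sup_le le_sup_left h1 hxy)
        |>.trans' (le_cent_of_comm (comm_of_cyclic h.selfNormalizing.2.2.2.2.1) le_rfl le_rfl)
    · rintro _ rfl
      refine ⟨hxy, fun h3 => h3.elim (fun h3 => hy1 ?_) fun h3 => hx1 ?_⟩
      · exact mem_bot.1 (d.inf_eq ▸ mem_inf.2 ⟨(Subgroup.mul_mem_cancel_left _ hx).1 h3, hy⟩)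
      · exact mem_bot.1 (d.inf_eq ▸ mem_inf.2 ⟨hx, (Subgroup.mul_mem_cancel_right _ hy).1 h3⟩)
  have e : W₁ ⊔ W₂' = W₁ ⊔ W₂ := le_antisymm h2 (sup_le le_sup_left h1)
  have hc : ♯W₂' = ♯W₂ := Nat.eq_of_mul_eq_mul_left (card_pos W₁) (by rw [d.card, d'.card, e])
  have cop := (d.cyclic_iff.1 hW.2.2.2.2.1).2.2
  refine eq_of_le_of_card_ge (fun w hw => ?_) hc.ge
  obtain ⟨a, ha, b, hb, rfl⟩ := d.prod w (h2 (mem_sup_right hw))
  have hab : Commute a b := hW.2.2.2.1 a ha b hb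
  have e1 : (a * b) ^ ♯W₂ = 1 := by
    rw [← hc]; exact congrArg Subtype.val (pow_card_eq_one' (x := (⟨_, hw⟩ : W₂')))
  have e2 : b ^ ♯W₂ = 1 := congrArg Subtype.val (pow_card_eq_one' (x := (⟨_, hb⟩ : W₂)))
  rw [hab.mul_pow, e2, mul_one] at e1
  have : a = 1 := by
    rw [← orderOf_eq_one_iff]
    exact Nat.eq_one_of_dvd_coprimes cop (orderOf_dvd_natCard W₁ ha) (orderOf_dvd_of_pow_eq_one e1)
  rwa [this, one_mul]

end Cfsg.Agent.H20
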